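import Cfsg.Agent.H0.TC
set_option maxRecDepth 100000
namespace H0.TCHSp3
open H0
noncomputable def tS : Tr := (.leaf (nat_lit 0xff6c3a7eff68268fff662569ff7f4725ff244847ff694f24ff5a137dff7e5b13ff125c5bff7d3e12ff113d3cff3b113aff002928ff270026ff252400ff131211))
noncomputable def tJ : Tr := (.leaf (nat_lit 0x214442808390016429200148380006428000150801020420040800020000))
noncomputable def tQ : Tr := (.leaf (nat_lit 0x0))
noncomputable def tR : TC.WTr := (.node (.node (.node (.node (.leaf [0] 0 0 false) (.leaf [1, 0, 2, 0, 1] 9 2 false)) (.leaf [0, 2, 0, 1, 2] 9 3 false)) (.node (.leaf [2, 0, 1, 2, 1] 9 4 false) (.leaf [2] 2 0 false))) (.node (.node (.leaf [2, 1, 0, 1, 2] 10 3 false) (.leaf [2, 1, 0, 2, 0] 9 1 false)) (.node (.leaf [1] 1 0 false) (.leaf [0, 2, 1, 0, 1] 10 2 false))))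
def hl : List ℕ := []
def B : List (List ℕ) := [[0, 0], [1, 1], [2, 2], [0, 1, 0, 1, 0, 1, 0, 1], [0, 1, 0, 1, 0, 1, 0, 1], [0, 2, 0, 2, 0, 2, 0, 2], [0, 2, 0, 2, 0, 2, 0, 2], [1, 2, 1, 2, 1, 2, 1, 2], [1, 2, 1, 2, 1, 2, 1, 2], [0, 1, 2, 1, 0, 2], [0, 1, 2, 0, 2, 1]]
def subs : List (List ℕ) := []
def ex : List (List ℕ) := []
def inv (x : ℕ) : ℕ := [0, 1, 2].getD x 0
noncomputable def rS : ℕ → ℕ := rowOf tS (nat_lit 9) (nat_lit 511) (nat_lit 32) (nat_lit 4294967295)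
noncomputable def rJ : ℕ → ℕ := rowOf tJ (nat_lit 9) (nat_lit 511) (nat_lit 15) (nat_lit 32767)
noncomputable def C : TC.Cfg where
  S := look rS (nat_lit 8) (nat_lit 255)
  J := look rJ (nat_lit 3) (nat_lit 7)
  Q := lookQ tQ (nat_lit 9) (nat_lit 1) (nat_lit 1)
  R := tR.get
  hl := fun x => hl.contains x
  n := (nat_lit 16)
  M := (nat_lit 16)
  top := (nat_lit 144)
  nl := (nat_lit 3)
  need := (nat_lit 3)
  nr := (nat_lit 3)
theorem k0 : TC.chkRange C 0 1 = true := by decide +kernel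
theorem rows0 : ∀ c < (0 + 1) * 64, c < C.M → TC.chkRow C c = true :=
  TC.rows_step (TC.rows_zero C) k0
theorem main {G : Type*} [Group G] (g : ℕ → G) (hB : ∀ r ∈ B, ev g r = 1) (H : Subgroup G)
    (hH : ∀ w ∈ subs, ev g w ∈ H) :
    H.relIndex (Subgroup.closure (g '' {x | x < 3})) ≠ 0 ∧
      H.relIndex (Subgroup.closure (g '' {x | x < 3})) ≤ 16 :=
  TC.index_le C B subs ex inv hl tR.hint rfl (by decide +kernel) (by decide +kernel)
    (TC.rows_done rows0 (by decide +kernel)) g hB H hH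
end H0.TCHSp3
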